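import Cfsg.Agent.Lib.Schur.PcBase
import Cfsg.Agent.Lib.Schur.PcSplit
import Cfsg.Agent.Lib.TC.D.Fi24Chain.Lev

/-!
# A tail certificate for a Sylow subgroup, with words in the columns of a table
-/

set_option autoImplicit false
set_option maxRecDepth 100000
set_option maxHeartbeats 0
set_option Elab.async false

namespace Cfsg.Agent.Lib.Schur.Cert.Fi24p5

open Cfsg.Agent.Lib.Schur.PcMain Cfsg.Agent.Lib.Schur.PcBase Cfsg.Agent.Lib.Schur.PcCert Cfsg.Agent.Lib.Schur.PcSplit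

def rule_0 : List (List ℕ) := [[]]

def rule_1 : List (List ℕ) := [[1], []]

def item_0 : List (List ℕ) × List (List ℕ) := ([[0], [1]], [[0, 0], [1, 1, 1, 1]])

def ov_0 : List ℕ × ℕ × ℕ × List (ℕ × ℤ) := ([1, 1, 1, 1, 1, 0], 0, 4, [(1000, -5)])

def fr_0 : ℕ × List ℕ × List ℕ × List (ℕ × ℤ) := (0, [1, 0], [0, 1], [(1000, 7)])

def tg_0 : ℕ × ℤ × List (ℕ × ℤ) := (1000, 0, [(0, -3), (1, -2)])

def C : Cert where
  p := 5
  n := 2
  r := 2
  fuel := 10
  rules := [rule_0, rule_1]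
  defs := []
  items := [item_0]
  ovs := [ov_0]
  frs := [fr_0]
  k0 := 1000
  zm := 1
  zcomb := [(0, -3), (1, -2)]
  targets := [tg_0]

def wE : List (List ℕ) := [[6, 8, 7, 6, 10, 11, 3, 4, 5, 6, 7, 10, 5, 4, 3, 6, 11, 10], [3, 1, 0, 2, 3, 4]]

def wY : List (List ℕ) := [[9, 8, 7, 6, 5, 10, 4, 5, 6, 3, 4, 5, 10, 7, 8, 6, 7, 5, 6, 4, 5, 10, 9, 8, 7, 6, 5, 4, 2, 3, 1, 2, 0, 1, 0, 1, 0, 2, 1, 3, 2, 4, 5, 6, 7, 8, 9, 10, 5, 4, 6, 5, 7, 6, 8, 7, 10, 5, 4, 3, 6, 5, 4, 10, 5, 6, 7, 8, 9, 7, 6, 5, 8, 11, 3, 4, 5, 6, 7, 8, 10, 5, 4, 6, 7, 11, 10, 5, 4, 3, 6, 5, 4, 10, 5, 6, 7, 2, 3, 4, 5, 6, 7, 10, 5, 4, 3, 2, 9, 8, 7, 6, 5, 4, 3, 10, 5, 4, 6, 5, 7, 6, 8, 7, 10, 5, 4, 6, 5, 10]]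

def lv : List (ℕ × List (List ℕ)) := [(24, [[1, 1, 1], [1, 1], [1], [1, 1, 1, 1], []]), (54, [[0, 0, 0], [], [0], [0, 0, 0, 0], [0, 0]])]

theorem ck_tb : C.chkTable = true := by decide +kernel

theorem ck_df : C.chkDefs = true := by decide +kernel

theorem ck_ov : C.chkOvs = true := by decide +kernel

theorem ck_fr0 : decide (fusVec C.sys C.fuel (C.lett fr_0.1) (C.letb fr_0.1) (Cert.foff fr_0.1) fr_0.2.1 fr_0.2.2.1 = some fr_0.2.2.2) = true := by decide +kernel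

theorem ck_frs : C.chkFrs = true := by
  refine frs_of_parts ?_
  show ∀ q ∈ [fr_0], _
  intro q hq
  simp only [List.mem_cons, List.not_mem_nil, or_false] at hq
  rcases hq with rfl
  · exact ck_fr0

def tS_0 : List ℕ := []

theorem ck_tg0 : decide ((C.combo tg_0.2.2).filter (fun q => !(tS_0.contains q.1)) = normS [(tg_0.1, (1 : ℤ)), (C.k0, tg_0.2.1)]) = true := by decide +kernel

def tS_1 : List ℕ := [1000]

theorem rt_1 : C.runTargets tS_1 [] = true := rt_nil C _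

theorem rt_0 : C.runTargets tS_0 (tg_0 :: []) = true :=
  rt_step ck_tg0 (by decide +kernel) rt_1

theorem ck_z : decide (C.combo C.zcomb = normS [(C.k0, (C.zm : ℤ))]) = true := by decide +kernel

theorem ck_all : ((List.range C.n).all fun j =>
      (decide (j < C.r) || decide (tidx j j ∈ C.targets.map (·.1))) &&
      (List.range j).all fun i => decide (tidx j i ∈ C.targets.map (·.1))) = true := by decide +kernel

theorem ck_tgs : C.chkTargets = true := targets_of_parts rt_0 ck_z ck_all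

theorem check_ok : C.check = true := check_of_parts ck_tb ck_df ck_ov ck_frs ck_tgs


abbrev base : List ℕ := Cfsg.Agent.Lib.TC.Iso.allBase [0] Cfsg.Agent.Lib.TC.D.Fi24Chain.Lev.levels

theorem hrules : chkRules Cfsg.Agent.Lib.TC.D.Fi24a.Tab.pt C wE base = true := by decide +kernel

theorem hitems : ∀ f < C.items.length, chkItem Cfsg.Agent.Lib.TC.D.Fi24a.Tab.pt C wE wY base f = true := by decide +kernel

theorem hlev : chkLev Cfsg.Agent.Lib.TC.D.Fi24a.Tab.pt wE [] lv = true := by decide +kernel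

theorem hwE : ∀ l ∈ wE, ∀ z ∈ l, z < 12 := by decide +kernel

theorem hwY : ∀ l ∈ wY, ∀ z ∈ l, z < 12 := by decide +kernel

theorem hwEe : ∀ l ∈ wE, Even l.length := by
  have h : ∀ l ∈ wE, l.length % 2 = 0 := by decide +kernel
  exact fun l hl => Nat.even_iff.2 (h l hl)

theorem hwYe : ∀ l ∈ wY, Even l.length := by
  have h : ∀ l ∈ wY, l.length % 2 = 0 := by decide +kernel
  exact fun l hl => Nat.even_iff.2 (h l hl)

theorem hlvn : ∀ t ∈ lv, ∀ u ∈ t.2, ∀ y ∈ u, y < C.n := by decide +kernel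

theorem hprod : (lv.map fun t => t.2.length).prod = C.p ^ C.n := by decide +kernel

end Cfsg.Agent.Lib.Schur.Cert.Fi24p5
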