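import Cfsg.Agent.Lib.Schur.PcGolay

/-!
# A tail certificate for a Sylow subgroup of a Mathieu group
-/

set_option autoImplicit false
set_option maxRecDepth 100000
set_option maxHeartbeats 0

namespace Cfsg.Agent.Lib.Schur.Cert.M12p3

open Cfsg.Agent.Lib.Schur.PcMain Cfsg.Agent.Lib.Schur.PcGolay

def rule_0 : List (List ℕ) := [[]]

def rule_1 : List (List ℕ) := [[1, 2], []]

def rule_2 : List (List ℕ) := [[2], [2], []]

def item_0 : List (List ℕ) × List (List ℕ) := ([[0], [1], [2]], [[0, 0], [1, 1, 2, 2], [2]])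

def ov_0 : List ℕ × ℕ × ℕ × List (ℕ × ℤ) := ([1, 1, 1, 0], 0, 2, [(1000, -3), (2001, -3), (2002, -1)])

def fr_0 : ℕ × List ℕ × List ℕ × List (ℕ × ℤ) := (0, [2, 0], [0, 2], [(2000, 1)])

def fr_1 : ℕ × List ℕ × List ℕ × List (ℕ × ℤ) := (0, [2, 1], [1, 2], [(2001, 1)])

def tg_0 : ℕ × ℤ × List (ℕ × ℤ) := (1000, 0, [(0, 1)])

def tg_1 : ℕ × ℤ × List (ℕ × ℤ) := (2000, 0, [(2, 1)])

def tg_2 : ℕ × ℤ × List (ℕ × ℤ) := (2001, 0, [(3, 1)])

def tg_3 : ℕ × ℤ × List (ℕ × ℤ) := (2002, 0, [(1, -1)])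

def C : Cert where
  p := 3
  n := 3
  r := 2
  fuel := 9
  rules := [rule_0, rule_1, rule_2]
  defs := [(1, 0)]
  items := [item_0]
  ovs := [ov_0]
  frs := [fr_0, fr_1]
  k0 := 1000
  zm := 1
  zcomb := [(0, 1)]
  targets := [tg_0, tg_1, tg_2, tg_3]

def codes : List ℕ := [803940782404495005313252501858156648, 939385786784911564888502035139266610, 725202907434128054667503440261821522]

def conj : List ℕ := [731680522759647474074900341120319762]

def base : List ℕ := [0, 1]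

def ord : List ℕ := [16, 13, 10, 0, 6, 3, 15, 12, 9, 1, 7, 4, 14, 17, 11, 8, 2, 5, 21, 18, 24, 20, 23, 26, 22, 19, 25]

theorem check_ok : C.check = true := by decide +kernel

theorem chk_ok : chkG C codes conj base ord = true := by decide +kernel

end Cfsg.Agent.Lib.Schur.Cert.M12p3
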