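import Cfsg.Agent.Lib.Schur.PcGolay

/-!
# A tail certificate for a Sylow subgroup of a Mathieu group
-/

set_option autoImplicit false
set_option maxRecDepth 100000
set_option maxHeartbeats 0

namespace Cfsg.Agent.Lib.Schur.Cert.M22p3

open Cfsg.Agent.Lib.Schur.PcMain Cfsg.Agent.Lib.Schur.PcGolay

def rule_0 : List (List ℕ) := [[]]

def rule_1 : List (List ℕ) := [[1], []]

def ov_0 : List ℕ × ℕ × ℕ × List (ℕ × ℤ) := ([1, 1, 1, 0], 0, 2, [(1000, -3)])

def tg_0 : ℕ × ℤ × List (ℕ × ℤ) := (1000, 2, [(0, -1)])

def C : Cert where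
  p := 3
  n := 2
  r := 2
  fuel := 5
  rules := [rule_0, rule_1]
  defs := []
  items := []
  ovs := [ov_0]
  frs := []
  k0 := 1000
  zm := 3
  zcomb := [(0, -1)]
  targets := [tg_0]

def codes : List ℕ := [976642678203236241800057909015939776, 984309357946991335402182733766013984]

def conj : List ℕ := []

def base : List ℕ := [5]

def ord : List ℕ := [0, 2, 7, 8, 1, 3, 4, 6, 5]

theorem check_ok : C.check = true := by decide +kernel

theorem chk_ok : chkG C codes conj base ord = true := by decide +kernel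

end Cfsg.Agent.Lib.Schur.Cert.M22p3
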