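import Cfsg.Agent.Lib.Schur.PcGolay

/-!
# A tail certificate for a Sylow subgroup of a Mathieu group
-/

set_option autoImplicit false
set_option maxRecDepth 100000
set_option maxHeartbeats 0

namespace Cfsg.Agent.Lib.Schur.Cert.M24p3

open Cfsg.Agent.Lib.Schur.PcMain Cfsg.Agent.Lib.Schur.PcGolay

def rule_0 : List (List ℕ) := [[]]

def rule_1 : List (List ℕ) := [[1, 2], []]

def rule_2 : List (List ℕ) := [[2], [2], []]

def item_0 : List (List ℕ) × List (List ℕ) := ([[0], [1], [2]], [[0], [0, 0, 1, 1], [2, 2]])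

def item_1 : List (List ℕ) × List (List ℕ) := ([[0], [0, 0, 2, 2]], [[0], [2]])

def item_2 : List (List ℕ) × List (List ℕ) := ([[0, 0, 1, 2], [2, 2]], [[2, 2], [0, 0, 1, 2]])

def ov_0 : List ℕ × ℕ × ℕ × List (ℕ × ℤ) := ([1, 0, 0, 0], 0, 1, [(1000, 3), (2000, 3), (2002, 1)])

def ov_1 : List ℕ × ℕ × ℕ × List (ℕ × ℤ) := ([2, 2, 2, 1], 0, 2, [(2001, -3)])

def fr_0 : ℕ × List ℕ × List ℕ × List (ℕ × ℤ) := (0, [2, 0], [0, 2], [(2000, 1)])

def fr_1 : ℕ × List ℕ × List ℕ × List (ℕ × ℤ) := (2, [1, 0], [0, 1], [(2000, -8), (2001, -4)])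

def tg_0 : ℕ × ℤ × List (ℕ × ℤ) := (1000, 0, [(0, 1)])

def tg_1 : ℕ × ℤ × List (ℕ × ℤ) := (2000, 0, [(3, 1)])

def tg_2 : ℕ × ℤ × List (ℕ × ℤ) := (2002, 0, [(1, 1)])

def tg_3 : ℕ × ℤ × List (ℕ × ℤ) := (2001, 0, [(2, 1), (4, -1)])

def C : Cert where
  p := 3
  n := 3
  r := 2
  fuel := 9
  rules := [rule_0, rule_1, rule_2]
  defs := [(1, 0)]
  items := [item_0, item_1, item_2]
  ovs := [ov_0, ov_1]
  frs := [fr_0, fr_1]
  k0 := 1000
  zm := 1
  zcomb := [(0, 1)]
  targets := [tg_0, tg_1, tg_2, tg_3]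

def codes : List ℕ := [189098728589559022925678539513932842, 810305495433088006160482942231195300, 183904740373042843382122669452789810]

def conj : List ℕ := [751636434407669824507757254775711406, 976446668295928401926579321926352930, 858949056535002766363587021421784494]

def base : List ℕ := [0, 2]

def ord : List ℕ := [0, 14, 7, 18, 23, 9, 25, 16, 5, 20, 22, 6, 11, 4, 2, 24, 15, 13, 10, 3, 8, 1, 12, 19, 26, 17, 21]

theorem check_ok : C.check = true := by decide +kernel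

theorem chk_ok : chkG C codes conj base ord = true := by decide +kernel

end Cfsg.Agent.Lib.Schur.Cert.M24p3
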